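import Mathlib
import Cfsg.Prelude.Def_ClassificationK
import Cfsg.Agent.Comp2.GenFitting
import Cfsg.Agent.PGrp.Critical
import Cfsg.Agent.Fischer.ES

/-! Involutions whose centralizer has generalized Fitting subgroup of symplectic type. -/

set_option autoImplicit false

namespace Cfsg.Agent.Inv

open Cfsg Subgroup LocalEven Fischer
open scoped commutatorElement

variable {G : Type*} [Group G] [Finite G]

theorem cyc_invol_uniq [IsCyclic G] {a b : G} (ha : orderOf a = 2) (hb : orderOf b = 2) : a = b := by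
  classical
  have := Fintype.ofFinite G
  have h := IsCyclic.card_orderOf_eq_totient (α := G) (d := 2) (by
    rw [← ha, ← Nat.card_eq_fintype_card]; exact orderOf_dvd_natCard a)
  exact Finset.card_le_one.1 (h.trans Nat.totient_two).le a (by simpa) b (by simpa)

theorem cyc_invol_eq {B : Subgroup G} (hB : IsCyclic B) {a b : G} (ha : a ∈ B) (hb : b ∈ B) (a1 : a ≠ 1)
    (b1 : b ≠ 1) (a2 : a * a = 1) (b2 : b * b = 1) : a = b :=
  haveI : Fact (Nat.Prime 2) := ⟨Nat.prime_two⟩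
  congrArg Subtype.val (cyc_invol_uniq (G := B) (a := ⟨a, ha⟩) (b := ⟨b, hb⟩)
    (by rw [← orderOf_coe]; exact orderOf_eq_prime (by rwa [pow_two]) a1)
    (by rw [← orderOf_coe]; exact orderOf_eq_prime (by rwa [pow_two]) b1))

/-- in a group of symplectic type an involution of a characteristic abelian subgroup is the
central involution -/
theorem symp_invol (hQ : IsOfSymplecticType G) {B : Subgroup G} (hBc : B.Characteristic)
    (hBa : IsMulCommutative B) {b z : G} (hb : b ∈ B) (b1 : b ≠ 1) (b2 : b * b = 1) (hz : z ∈ center G)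
    (z1 : z ≠ 1) (z2 : z * z = 1) : b = z :=
  cyc_invol_eq (hQ.2 (center G) inferInstance inferInstance) (mem_center_iff.2 fun x =>
    mul_inv_eq_iff_eq_mul.1 (cyc_invol_eq (hQ.2 B hBc hBa) (Normal.conj_mem inferInstance _ hb x) hb
      (by simpa using b1) b1 (by rw [conj_mul, b2]; simp) b2)) hz b1 z1 b2 z2

theorem symp_sq (hQ : IsOfSymplecticType G) (h4 : ∀ x : G, x ^ 4 = 1) {z : G} (hz : z ∈ center G)
    (z1 : z ≠ 1) (z2 : z * z = 1) (x : G) : x * x = 1 ∨ x * x = z := by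
  haveI : Fact (Nat.Prime 2) := ⟨Nat.prime_two⟩
  obtain ⟨H, hH, h1, h2, h3⟩ := PGrp.exists_critical hQ.1
  haveI := PGrp.inf_characteristic H (centralizer (H : Set G))
  have hA := isMulCommutative_center H
  have hA2 : ∀ b ∈ H ⊓ centralizer (H : Set G), b * b = 1 → b = 1 ∨ b = z := fun b hb b2 =>
    or_iff_not_imp_left.2 fun b1 => symp_invol hQ this hA hb b1 b2 hz z1 z2
  have h44 : ∀ x : G, x * x * (x * x) = 1 := fun x => by rw [← h4 x]; simp only [pow_succ, pow_zero, one_mul, mul_assoc]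
  have hzc : ∀ x, x * z = z * x := mem_center_iff.1 hz
  suffices x * x ∈ centralizer (H : Set G) from hA2 _ ⟨h3 this, this⟩ (h44 x)
  intro c hc
  obtain ⟨hd, hd'⟩ := h2 (commutator_mem_commutator (inv_mem hc) (mem_top x))
  set d := ⁅c⁻¹, x⁆ with hdd
  have e : x * c * x⁻¹ = c * d := by rw [hdd, commutatorElement_def]; group
  have hcd : c * d = d * c := hd' c hc
  have hcc : x * (c * c) * x⁻¹ = c * c := by
    rcases hA2 (c * c) ⟨mul_mem hc hc, pow_two c ▸ h1 c hc⟩ (h44 c) with h | h <;> rw [h]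
    · simp
    · rw [hzc, mul_inv_cancel_right]
  have hdd2 : d * d = 1 := by
    rw [← conj_mul, e, mul_assoc, ← mul_assoc d, ← hcd, mul_assoc c d d, ← mul_assoc, mul_eq_left] at hcc
    exact hcc
  have hxd : x * d * x⁻¹ = d := by
    rcases hA2 d ⟨hd, hd'⟩ hdd2 with h | h <;> rw [h]
    · simp
    · rw [hzc, mul_inv_cancel_right]
  symm
  rw [← mul_inv_eq_iff_eq_mul, show x * x * c * (x * x)⁻¹ = x * (x * c * x⁻¹) * x⁻¹ by group, e,
    ← conj_mul, e, hxd, mul_assoc, hdd2, mul_one]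

/-- `Q` is self-centralizing, normal in `C(z)`, `Q/⟨z⟩` is elementary and `z` is the only central
involution of `Q` -/
structure WS (Q : Subgroup G) (z : G) : Prop where
  mem : z ∈ Q
  ne : z ≠ 1
  zsq : z * z = 1
  central : ∀ x ∈ Q, Commute z x
  sq : ∀ x ∈ Q, x * x = 1 ∨ x * x = z
  cent : ∀ x ∈ Q, (∀ y ∈ Q, Commute x y) → x * x = 1 → x = 1 ∨ x = z
  cmem : ∀ g, (∀ x ∈ Q, Commute g x) → g ∈ Q
  norm : ∀ g, Commute g z → ∀ x ∈ Q, g * x * g⁻¹ ∈ Q

theorem z_mem_genFit {z : G} : (⟨z, mem_centralizer_singleton_iff.2 rfl⟩ : centralizer ({z} : Set G)) ∈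
    generalizedFittingSubgroup (centralizer ({z} : Set G)) :=
  Comp2.centralizer_genFitting_le fun x _ => Subtype.ext (mem_centralizer_singleton_iff.1 x.2)

theorem ws_of {z : G} (hz : orderOf z = 2) {Q : Subgroup G}
    (hQ : IsOfSymplecticType (generalizedFittingSubgroup (centralizer ({z} : Set G))))
    (e : (generalizedFittingSubgroup (centralizer ({z} : Set G))).map (centralizer ({z} : Set G)).subtype = Q)
    (h4 : ∀ q ∈ Q, q ^ 4 = 1) : WS Q z := by
  subst e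
  have z1 : z ≠ 1 := ne_one_of_orderOf_eq hz
  have z2 : z * z = 1 := by rw [← pow_two, ← hz, pow_orderOf_eq_one]
  let z' : generalizedFittingSubgroup (centralizer ({z} : Set G)) := ⟨_, z_mem_genFit⟩
  have hc : z' ∈ center _ := mem_center_iff.2 fun x =>
    Subtype.ext (Subtype.ext (mem_centralizer_singleton_iff.1 x.1.2))
  have z1' : z' ≠ 1 := fun e => z1 (congrArg (fun x => x.1.1) e)
  have z2' : z' * z' = 1 := Subtype.ext (Subtype.ext z2)
  have hm : z ∈ (generalizedFittingSubgroup (centralizer ({z} : Set G))).map (centralizer ({z} : Set G)).subtype :=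
    ⟨_, z_mem_genFit, rfl⟩
  refine ⟨hm, z1, z2, ?_, ?_, ?_, fun g hg => ?_, fun g hg x hx => ?_⟩
  · rintro _ ⟨x, -, rfl⟩
    exact (mem_centralizer_singleton_iff.1 x.2).symm
  · rintro _ ⟨x, hx, rfl⟩
    exact (symp_sq hQ (fun y => Subtype.ext (Subtype.ext (h4 _ ⟨y, y.2, rfl⟩))) hc z1' z2' ⟨x, hx⟩).imp
      (fun e => congrArg (fun x => x.1.1) e) fun e => congrArg (fun x => x.1.1) e
  · rintro _ ⟨x, hx, rfl⟩ h1 h2
    refine or_iff_not_imp_left.2 fun h3 => congrArg (fun x => x.1.1) (symp_invol hQ (B := center _) inferInstance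
      inferInstance (b := ⟨x, hx⟩) (mem_center_iff.2 fun y => Subtype.ext (Subtype.ext
        (h1 _ ⟨y, y.2, rfl⟩).symm.eq)) (fun e => h3 (congrArg (fun x => x.1.1) e))
      (Subtype.ext (Subtype.ext h2)) hc z1' z2')
  · exact ⟨⟨g, mem_centralizer_singleton_iff.2 (hg z hm)⟩, Comp2.centralizer_genFitting_le fun x hx =>
      Subtype.ext (hg _ ⟨x, hx, rfl⟩).symm.eq, rfl⟩
  · exact conj_mem_of_mem_normalizer (LocalEven.le_normalizer_map_subtype _ (mem_centralizer_singleton_iff.2 hg)) hx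

namespace WS

variable {Q R : Subgroup G} {z s : G}

omit [Finite G]

theorem zinv (h : WS Q z) : z⁻¹ = z := inv_eq_of_mul_eq_one_right h.zsq

theorem conj (h : WS Q z) {x y : G} (hx : x ∈ Q) (hy : y ∈ Q) : x * y * x⁻¹ = y ∨ x * y * x⁻¹ = y * z := by
  have e : x * y * x⁻¹ = (x * y * (x * y)) * (y⁻¹ * (x * x)⁻¹ * y) * (y * y)⁻¹ * y := by group
  have h1 := (h.central y hy).eq
  have h2 : y⁻¹ * z * y = z := by rw [mul_assoc, h1, inv_mul_cancel_left]
  rw [e]
  rcases h.sq _ (mul_mem hx hy) with a | a <;> rcases h.sq _ hx with b | b <;>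
    rcases h.sq _ hy with c | c <;> simp [a, b, c, h.zinv, h2, h.zsq, ← h1]

theorem cj (h : WS Q z) (g : G) : WS (cj g Q) (g * z * g⁻¹) := by
  have hc : ∀ a b : G, Commute (g * a * g⁻¹) (g * b * g⁻¹) ↔ Commute a b := fun a b => by
    simp only [commute_iff_eq, conj_mul, mul_left_inj, mul_right_inj]
  refine ⟨conj_mem_cj h.mem, by simpa using h.ne, by rw [conj_mul, h.zsq]; simp, fun x hx => ?_,
    fun x hx => ?_, fun x hx h1 h2 => ?_, fun k hk => ?_, fun k hk x hx => ?_⟩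
  · obtain ⟨x, hx', rfl⟩ := mem_cj'.1 hx
    exact (hc _ _).2 (h.central x hx')
  · obtain ⟨x, hx', rfl⟩ := mem_cj'.1 hx
    rw [conj_mul]
    rcases h.sq x hx' with e | e <;> simp [e]
  · obtain ⟨x, hx', rfl⟩ := mem_cj'.1 hx
    rw [conj_mul] at h2
    rcases h.cent x hx' (fun y hy => (hc _ _).1 (h1 _ (conj_mem_cj hy))) (by simpa using h2) with e | e <;>
      simp [e]
  · obtain ⟨k, rfl⟩ : ∃ k', g * k' * g⁻¹ = k := ⟨g⁻¹ * k * g, by group⟩
    exact conj_mem_cj (h.cmem k fun x hx => (hc _ _).1 (hk _ (conj_mem_cj hx)))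
  · obtain ⟨k, rfl⟩ : ∃ k', g * k' * g⁻¹ = k := ⟨g⁻¹ * k * g, by group⟩
    obtain ⟨x, hx', rfl⟩ := mem_cj'.1 hx
    rw [show g * k * g⁻¹ * (g * x * g⁻¹) * (g * k * g⁻¹)⁻¹ = g * (k * x * k⁻¹) * g⁻¹ by group]
    exact conj_mem_cj (h.norm k ((hc _ _).1 hk) x hx')

theorem exists_conj (h : WS Q z) (hs : s ∈ Q) (s1 : s ≠ 1) (s2 : s * s = 1) (hsz : s ≠ z) :
    ∃ y ∈ Q, y * s * y⁻¹ = s * z := by
  by_contra h1
  push Not at h1
  rcases h.cent s hs (fun y hy => (commute_iff_conj.2 ((h.conj hy hs).resolve_right (h1 y hy))).symm) s2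
    with e | e
  exacts [s1 e, hsz e]

theorem symm_aux (h : WS Q z) (h' : WS R s) (hs : s ∈ Q) {w : G} (hw : w ∈ Q) (hwc : ∀ x ∈ Q, Commute w x)
    (hw2 : w * w = z) (hB : ∀ x ∈ R, x * z * x⁻¹ ≠ z * s) : z ∈ R := by
  by_contra hz
  have hzs : Commute z s := h.central s hs
  have hsz : s ≠ z := fun e => hz (e ▸ h'.mem)
  have hW : ∀ x ∈ R, (z * x * z⁻¹ = x ∨ z * x * z⁻¹ = x * s) → Commute x z := by
    rintro x hx (h1 | h1)
    · exact (commute_iff_conj.2 h1).symm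
    · refine (hB x⁻¹ (inv_mem hx) ?_).elim
      calc x⁻¹ * z * x⁻¹⁻¹ = x⁻¹ * (z * x * z⁻¹) * z := by group
        _ = _ := by rw [h1, hzs.eq]; group
  obtain ⟨y, hy, hys⟩ := h.exists_conj hs h'.ne h'.zsq hsz
  have h1 : ∀ t ∈ Q, t ∈ R → t = 1 ∨ t = s := fun t ht ht' => by
    have k1 : ∀ p ∈ Q, Commute p s → Commute p t := fun p hp hsp => by
      rcases h.conj hp ht with h1 | h1
      · exact commute_iff_conj.2 h1
      · exact (hz ((mul_mem_cancel_left ht').1 (h1 ▸ h'.norm p hsp t ht'))).elim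
    have k2 : t * t = 1 := (h.sq t ht).resolve_right fun e => hz (e ▸ mul_mem ht' ht')
    have k3 : ∀ u ∈ Q, (∀ p ∈ Q, Commute p s → Commute p u) → Commute y u → u * u = 1 → u = 1 ∨ u = z :=
      fun u hu h1 h2 => h.cent u hu fun x hx => by
        rcases h.conj hx hs with e | e
        · exact (h1 x hx (commute_iff_conj.2 e)).symm
        · have := h1 (y * x) (mul_mem hy hx) (commute_iff_conj.2 (by
            rw [show y * x * s * (y * x)⁻¹ = y * (x * s * x⁻¹) * y⁻¹ by group, e, ← conj_mul, hys,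
              commute_iff_conj.1 (h.central y hy).symm, mul_assoc, h.zsq, mul_one]))
          simpa using (h2.inv_left.mul_left this).symm
    rcases h.conj hy ht with e | e
    · exact (k3 t ht k1 (commute_iff_conj.2 e) k2).imp_right fun e : t = z => (hz (e ▸ ht')).elim
    · have hts := (h'.central t ht').symm
      rcases k3 (t * s) (mul_mem ht hs) (fun p hp hp' => (k1 p hp hp').mul_right hp')
        (commute_iff_conj.2 (by
          rw [← conj_mul, e, hys, mul_assoc, ← mul_assoc z, hzs.eq, mul_assoc s, h.zsq, mul_one]))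
        (by rw [mul_assoc, ← mul_assoc s, ← hts.eq, mul_assoc t, h'.zsq, mul_one, k2]) with e | e
      · exact .inr (by rw [eq_inv_of_mul_eq_one_left e, h'.zinv])
      · exact (hz (e ▸ mul_mem ht' h'.mem)).elim
  have hws := hwc s hs
  have h2 : ∀ a ∈ R, Commute a z → Commute w a := fun a ha haz => by
    have hm := h.norm a haz _ (inv_mem hw)
    rcases h1 (w * a * w⁻¹ * a⁻¹) (by simpa [mul_assoc] using mul_mem hw hm)
      (mul_mem (h'.norm w hws a ha) (inv_mem ha)) with h3 | h3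
    · exact commute_iff_conj.2 (mul_inv_eq_one.1 h3)
    · refine absurd (h.cent s hs (fun x hx => ?_) h'.zsq) (not_or.2 ⟨h'.ne, hsz⟩)
      rw [← h3, show w * a * w⁻¹ * a⁻¹ = w * (a * w⁻¹ * a⁻¹) by group]
      refine (hwc x hx).mul_left (commute_iff_conj.2 ?_)
      have := commute_iff_conj.1 (hwc _ (h.norm a⁻¹ haz.inv_left x hx)).inv_left
      rw [show a * w⁻¹ * a⁻¹ * x * (a * w⁻¹ * a⁻¹)⁻¹ = a * (w⁻¹ * (a⁻¹ * x * a⁻¹⁻¹) * w⁻¹⁻¹) * a⁻¹ by group,
        this]; group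
  refine hz (h'.cmem z fun v hv => (hW v hv ?_).symm)
  have h3 : Commute (z * v * z⁻¹ * v⁻¹) z := by
    have hw := mul_mem (h'.norm z hzs v hv) (inv_mem hv)
    refine hW _ hw ?_
    have e : z * (z * v * z⁻¹ * v⁻¹) * z⁻¹ = (z * v * z⁻¹ * v⁻¹)⁻¹ := by
      rw [← mul_assoc, ← mul_assoc, ← mul_assoc, h.zsq]; simp [mul_assoc, h.zinv]
    rw [e]
    rcases h'.sq _ hw with h4 | h4
    · exact Or.inl (inv_eq_of_mul_eq_one_right h4)
    · right
      rw [inv_eq_iff_mul_eq_one, ← mul_assoc, h4, h'.zsq]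
  have h4 := commute_iff_conj.1 (h2 _ (mul_mem (h'.norm z hzs v hv) (inv_mem hv)) h3)
  have hwz := commute_iff_conj.1 (hwc z h.mem)
  have hb := mul_mem (inv_mem hv) (h'.norm w hws v hv)
  have h5 := commute_iff_conj.1 (h2 _ hb (commute_iff_conj.2 (show z * (v⁻¹ * (w * v * w⁻¹)) * z⁻¹ = _ by
    rw [show w * (z * v * z⁻¹ * v⁻¹) * w⁻¹ = (w * z * w⁻¹) * (w * v * w⁻¹) * (w * z * w⁻¹)⁻¹ * (w * v * w⁻¹)⁻¹
      by group, hwz, mul_inv_eq_iff_eq_mul] at h4
    rw [← conj_mul, h4]; group)).symm)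
  have e : z * v * z⁻¹ = v * (v⁻¹ * (w * v * w⁻¹) * (v⁻¹ * (w * v * w⁻¹))) := by
    nth_rw 2 [← h5]
    rw [← hw2]; group
  rw [e]
  rcases h'.sq _ hb with h6 | h6 <;> simp [h6]

theorem symm (h : WS Q z) {g : G} (hs : g * z * g⁻¹ ∈ Q) (hne : g * z * g⁻¹ ≠ z) : z ∈ LocalEven.cj g Q := by
  have h' := h.cj g
  obtain ⟨y, hy, hys⟩ := h.exists_conj hs h'.ne h'.zsq hne
  by_cases hc : ∀ x ∈ Q, (∀ y ∈ Q, Commute x y) → x = 1 ∨ x = z
  · refine LS.symm ⟨⟨h.mem, h.ne, h.zsq, h.central, fun x hx y hy => h.conj hx hy, h.sq, hc,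
      y, hy, _, hs, fun e => h.ne ?_⟩, h.cmem, h.norm⟩ hs
    rwa [commute_iff_conj.1 e, left_eq_mul] at hys
  push Not at hc
  obtain ⟨w, hw, hwc, w1, wz⟩ := hc
  by_cases hB : ∀ x ∈ LocalEven.cj g Q, x * z * x⁻¹ ≠ z * (g * z * g⁻¹)
  · exact symm_aux h h' hs hw hwc ((h.sq w hw).resolve_left fun e => (h.cent w hw hwc e).elim w1 wz) hB
  push Not at hB
  obtain ⟨x, hx, hxz⟩ := hB
  set s := g * z * g⁻¹ with hsdef
  have hzs := h.central s hs
  have hxs := commute_iff_conj.1 (h'.central x hx).symm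
  have hyz := commute_iff_conj.1 (h.central y hy).symm
  have e1 : (x * y * x) * z * (x * y * x)⁻¹ = s := by
    calc (x * y * x) * z * (x * y * x)⁻¹ = x * (y * (x * z * x⁻¹) * y⁻¹) * x⁻¹ := by group
      _ = s := by rw [hxz, ← conj_mul (b := y), hyz, hys, ← hzs.eq, ← mul_assoc z, h.zsq, one_mul, hxs]
  have e2 : (x * y * x) * s * (x * y * x)⁻¹ = z := by
    calc (x * y * x) * s * (x * y * x)⁻¹ = x * (y * (x * s * x⁻¹) * y⁻¹) * x⁻¹ := by group
      _ = z := by rw [hxs, hys, ← conj_mul, hxs, hxz, hzs.eq, ← mul_assoc, h'.zsq, one_mul]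
  rw [mem_cj, ← e2, show g⁻¹ * (x * y * x * s * (x * y * x)⁻¹) * g =
    (g⁻¹ * (x * y * x)) * s * (g⁻¹ * (x * y * x))⁻¹ by group]
  refine h.norm _ (commute_iff_conj.2 ?_) s hs
  rw [show g⁻¹ * (x * y * x) * z * (g⁻¹ * (x * y * x))⁻¹ = g⁻¹ * (x * y * x * z * (x * y * x)⁻¹) * g by group,
    e1, hsdef]; group

end WS

end Cfsg.Agent.Inv
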