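import Mathlib
import Cfsg.Agent.Inv.Alperin

/-! Alperin's fusion theorem as an induction principle, for subgroups. -/

namespace Cfsg.Agent.Inv

open Subgroup LocalEven

variable {G : Type*} [Group G] {p : ℕ}

/-- The elements of the normalizer of `B` leaving a function on `B` invariant. -/
def invariantSubgroup' {α : Type*} (f : Subgroup G → α) (B : Subgroup G) : Subgroup G where
  carrier := {g | g ∈ normalizer (B : Set G) ∧ ∀ b ≤ B, f (cj g b) = f b}
  one_mem' := ⟨one_mem _, fun b _ => by rw [cj_one]⟩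
  mul_mem' := by
    rintro x y ⟨hx, hx'⟩ ⟨hy, hy'⟩
    refine ⟨mul_mem hx hy, fun b hb => ?_⟩
    rw [cj_mul, hx' _ (cj_le_of_mem_normalizer hy hb), hy' b hb]
  inv_mem' := by
    rintro x ⟨hx, hx'⟩
    refine ⟨inv_mem hx, fun b hb => ?_⟩
    rw [← hx' _ (cj_le_of_mem_normalizer (inv_mem hx) hb), cj_cj_inv]

theorem invariant_of_coprime' [Finite G] [Fact p.Prime] {α : Type*} {f : Subgroup G → α} {T B : Subgroup G}
    (hT : IsSylowIn p T (normalizer (B : Set G)))
    (h1 : ∀ s ∈ T, ∀ b ≤ B, f (cj s b) = f b)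
    (h2 : ∀ g ∈ normalizer (B : Set G), (orderOf g).Coprime p → ∀ b ≤ B, f (cj g b) = f b)
    {g : G} (hg : g ∈ normalizer (B : Set G)) {b : Subgroup G} (hb : b ≤ B) : f (cj g b) = f b := by
  have : normalizer (B : Set G) ≤ invariantSubgroup' f B := by
    rw [← hT.pResOf_sup]
    exact sup_le (pResOf_le_iff.2 fun x hx hx' => ⟨hx, h2 x hx hx'⟩)
      fun s hs => ⟨hT.1 hs, h1 s hs⟩
  exact (this hg).2 b hb

theorem alperin_sub_aux [Finite G] [Fact p.Prime] {α : Type*} (S : Sylow p G) (f : Subgroup G → α)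
    (hS : ∀ s ∈ (S : Subgroup G), ∀ x ≤ (S : Subgroup G), f (cj s x) = f x)
    (h : ∀ B : Subgroup G, B ≤ S → (S : Subgroup G) ⊓ centralizer (B : Set G) ≤ B →
      IsSylowIn p ((S : Subgroup G) ⊓ normalizer (B : Set G)) (normalizer (B : Set G)) →
      ∀ g ∈ normalizer (B : Set G), (orderOf g).Coprime p → g ∉ centralizer (B : Set G) →
      ∀ b ≤ B, f (cj g b) = f b)
    (A : Subgroup G) (hA : A ≤ S) (g : G) (hg : cj g A ≤ S) (a : Subgroup G) (ha : a ≤ A) :
    f (cj g a) = f a := by
  induction hn : Nat.card G - Nat.card A using Nat.strong_induction_on generalizing A g a with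
  | _ n ih =>
  have IH : ∀ B : Subgroup G, Nat.card A < Nat.card B → B ≤ S → ∀ g, cj g B ≤ S → ∀ b ≤ B,
      f (cj g b) = f b := fun B hB hBS g hg b hb =>
    ih _ (by have := B.card_le_card_group; omega) B hBS g hg b hb rfl
  have lt_card : ∀ {X Y : Subgroup G}, X < Y → Nat.card X < Nat.card Y := fun {X Y} hXY =>
    lt_of_not_ge fun hc => hXY.ne (LocalEven.eq_of_le_of_card_le hXY.le hc)
  have step : ∀ B : Subgroup G, Nat.card B = Nat.card A → B ≤ S →
      IsSylowIn p ((S : Subgroup G) ⊓ normalizer (B : Set G)) (normalizer (B : Set G)) →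
      ∀ g ∈ normalizer (B : Set G), ∀ b ≤ B, f (cj g b) = f b := by
    intro B hBA hBS hB g hg b hb
    by_cases hC : (S : Subgroup G) ⊓ centralizer (B : Set G) ≤ B
    · refine invariant_of_coprime' hB (fun s hs b hb => hS s hs.1 b (hb.trans hBS)) ?_ hg hb
      intro g hg hg' b hb
      by_cases hgC : g ∈ centralizer (B : Set G)
      · rw [cj_eq_of_mem_normalizer (centralizer_le_normalizer _ (centralizer_le hb hgC))]
      · exact h B hBS hC hB g hg hg' hgC b hb
    · obtain ⟨c, hc, x, hx, rfl⟩ := (isSylowIn_centralizer_of_fullyNormalized hB).frattini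
        (LocalEven.normalizer_le_normalizer_centralizer B hg)
      have hxB : x ∈ normalizer (B : Set G) := by
        simpa using mul_mem (inv_mem (centralizer_le_normalizer _ hc)) hg
      have hle : B ⊔ (S : Subgroup G) ⊓ centralizer (B : Set G) ≤ S := sup_le hBS inf_le_left
      have h1 := IH (B ⊔ (S : Subgroup G) ⊓ centralizer (B : Set G))
        (hBA ▸ lt_card (left_lt_sup.2 hC)) hle x
        (by rw [cj_sup, cj_eq_of_mem_normalizer hxB, cj_eq_of_mem_normalizer hx]; exact hle) b
        (hb.trans le_sup_left)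
      rw [← h1, cj_mul, cj_eq_of_mem_normalizer (centralizer_le_normalizer _
        (centralizer_le (cj_le_of_mem_normalizer hxB hb) hc))]
  rcases hA.eq_or_lt with hAS | hAS
  · subst hAS
    refine step _ rfl le_rfl ?_ g (mem_normalizer_of_cj_le hg) a ha
    rw [inf_eq_left.2 le_normalizer]
    exact isSylowIn_of_sylow_le S le_normalizer
  · obtain ⟨k, hk1, hk2⟩ := exists_fullyNormalized S A
    have hAN := lt_inf_normalizer S.2 hAS
    have hA'S : cj g A < S := lt_of_le_of_ne hg fun h => by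
      have := lt_card hAS
      rw [← h, card_cj] at this
      exact lt_irrefl _ this
    have hA'N := lt_inf_normalizer S.2 hA'S
    obtain ⟨k', hk'1, hk'2⟩ := exists_cj_to_fullyNormalized S hk2 (A := cj g A) (k := k * g⁻¹)
      (by rw [cj_mul, cj_inv_cj])
    have e1 := IH _ (lt_card hAN) inf_le_left k hk1 a (ha.trans hAN.le)
    have e2 := IH _ (card_cj g A ▸ lt_card hA'N) inf_le_left k' hk'2 _ ((cj_mono g ha).trans hA'N.le)
    have e3 := step (cj k A) (card_cj k A) ((cj_mono k hAN.le).trans hk1) hk2 (k' * g * k⁻¹)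
      (by rw [← cj_eq_self_iff, cj_mul, cj_inv_cj, cj_mul, hk'1]) _ (cj_mono k ha)
    rw [← e2, ← e1, ← e3, cj_cj, cj_cj, inv_mul_cancel_right]

/-- Alperin's fusion theorem as an induction principle, for subgroups. -/
theorem alperin_sub [Finite G] [Fact p.Prime] {α : Type*} (S : Sylow p G) (f : Subgroup G → α)
    (hS : ∀ s ∈ (S : Subgroup G), ∀ x ≤ (S : Subgroup G), f (cj s x) = f x)
    (h : ∀ B : Subgroup G, B ≤ S → (S : Subgroup G) ⊓ centralizer (B : Set G) ≤ B →
      IsSylowIn p ((S : Subgroup G) ⊓ normalizer (B : Set G)) (normalizer (B : Set G)) →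
      ∀ g ∈ normalizer (B : Set G), (orderOf g).Coprime p → g ∉ centralizer (B : Set G) →
      ∀ b ≤ B, f (cj g b) = f b)
    {A : Subgroup G} (hA : A ≤ S) {g : G} (hg : cj g A ≤ S) : f (cj g A) = f A :=
  alperin_sub_aux S f hS h A hA g hg A le_rfl

end Cfsg.Agent.Inv
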