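import Mathlib
import Cfsg.Agent.LocalEven.SylowIn
import Cfsg.Agent.Core.Basic
import Cfsg.Agent.PGrp.Frattini

/-! Trivial intersection 2-subgroups. -/

namespace Cfsg.Agent.Inv

open Subgroup LocalEven
open scoped commutatorElement

variable {G : Type*} [Group G] [Finite G] {p : ℕ}

theorem exists_norm_of_lt [Fact p.Prime] {A B N : Subgroup G} (hA : IsPGroup p A) (hB : IsPGroup p B)
    (h : B ≤ normalizer (A : Set G)) (hN : N < A) (hn : B ≤ normalizer (N : Set G))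
    (hd : A ⊓ (N ⊔ B) ≤ N) : ∃ a ∈ A, a ∉ N ∧ a ∈ normalizer ((N ⊔ B : Subgroup G) : Set G) := by
  obtain ⟨x, h1, h2, h3⟩ := exists_mem_normalizer_of_lt (isPGroup_sup hB hA h) (Q := N ⊔ B)
    (lt_of_le_of_ne (sup_le (hN.le.trans le_sup_right) le_sup_left) fun e =>
      hN.not_ge ((le_inf le_rfl (le_sup_right.trans e.ge)).trans hd))
  obtain ⟨b, hb, a, ha, rfl⟩ := (mem_sup_iff_of_le_normalizer h).1 h1
  refine ⟨a, ha, fun h4 => h3 (mul_mem (mem_sup_right hb) (mem_sup_left h4)), ?_⟩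
  simpa using mul_mem (inv_mem (le_normalizer (mem_sup_right hb : b ∈ N ⊔ B))) h2

theorem le_cent_of_sq {A : Subgroup G} (hA : IsPGroup 2 A) (hc : IsMulCommutative A) {t : G}
    (ht : IsPGroup 2 (zpowers t)) (hn : t ∈ normalizer (A : Set G))
    (h : ∀ a ∈ A, t * t * a = a * (t * t) → t * a = a * t) : A ≤ centralizer {t} := by
  haveI : Fact (Nat.Prime 2) := ⟨Nat.prime_two⟩
  have hcom : ∀ a ∈ A, ∀ b ∈ A, a * b = b * a := fun a ha b hb =>
    congrArg Subtype.val (hc.is_comm.comm ⟨a, ha⟩ ⟨b, hb⟩)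
  have hle : (A ⊓ centralizer {t}) ⊔ zpowers t ≤ centralizer {t} :=
    sup_le inf_le_right (zpowers_le.2 (mem_centralizer_singleton_iff.2 rfl))
  by_contra h1
  obtain ⟨a, ha, h2, h3⟩ := exists_norm_of_lt hA ht (zpowers_le.2 hn) (N := A ⊓ centralizer {t})
    (lt_of_le_of_ne inf_le_left fun e => h1 (e.ge.trans inf_le_right))
    (le_normalizer_inf (zpowers_le.2 hn) ((le_sup_right.trans hle).trans le_normalizer))
    (inf_le_inf_left _ hle)
  set c := a⁻¹ * (t * a * t⁻¹) with hcd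
  have hcA : c ∈ A := mul_mem (inv_mem ha) (conj_mem_of_mem_normalizer hn ha)
  have hct : t * c = c * t := by
    have := mul_mem (hle (inv_conj_mem_of_mem_normalizer h3 (mem_sup_right (mem_zpowers t))))
      (inv_mem (hle (mem_sup_right (mem_zpowers t))))
    rw [show a⁻¹ * t * a * t⁻¹ = c by rw [hcd]; group] at this
    exact (mem_centralizer_singleton_iff.1 this).symm
  have hc1 : c ≠ 1 := fun e => h2 ⟨ha, mem_centralizer_singleton_iff.2 (by
    rw [hcd, inv_mul_eq_one] at e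
    exact (mul_inv_eq_iff_eq_mul.1 e.symm).symm)⟩
  obtain ⟨k, hk⟩ := orderOf_of_mem_isPGroup hA hcA
  obtain ⟨k, rfl⟩ := Nat.exists_eq_add_one_of_ne_zero (n := k) (by
    rintro rfl; exact hc1 (orderOf_eq_one_iff.1 hk))
  have e1 : t * a ^ 2 ^ k * t⁻¹ = a ^ 2 ^ k * c ^ 2 ^ k := by
    rw [← conj_pow, ← Commute.mul_pow (hcom a ha c hcA), hcd, mul_inv_cancel_left]
  have e2 : c ^ 2 ^ k * c ^ 2 ^ k = 1 := by
    rw [← pow_two, ← pow_mul, ← pow_succ, ← hk, pow_orderOf_eq_one]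
  have e3 : t * c ^ 2 ^ k * t⁻¹ = c ^ 2 ^ k := by
    rw [← conj_pow, hct, mul_inv_cancel_right]
  have e4 := h _ (pow_mem ha (2 ^ k)) (by
    rw [← mul_inv_eq_iff_eq_mul, show t * t * a ^ 2 ^ k * (t * t)⁻¹ =
      t * (t * a ^ 2 ^ k * t⁻¹) * t⁻¹ by group, e1, show t * (a ^ 2 ^ k * c ^ 2 ^ k) * t⁻¹ =
      (t * a ^ 2 ^ k * t⁻¹) * (t * c ^ 2 ^ k * t⁻¹) by group, e1, e3, mul_assoc, e2, mul_one])
  rw [e4, mul_inv_cancel_right, left_eq_mul] at e1
  have := orderOf_dvd_of_pow_eq_one e1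
  rw [hk, Nat.pow_dvd_pow_iff_le_right one_lt_two] at this
  omega

omit [Finite G] in
theorem commutator_le_inf' {A B : Subgroup G} (h1 : A ≤ normalizer (B : Set G))
    (h2 : B ≤ normalizer (A : Set G)) : ⁅A, B⁆ ≤ A ⊓ B :=
  le_inf (le_normalizer_iff_commutator_le_left.1 h2) (le_normalizer_iff_commutator_le_right.1 h1)

theorem ti_commute [Fact p.Prime] {A B : Subgroup G} (hA : IsPGroup p A) (hB : IsPGroup p B)
    (hti : ∀ a ∈ A, cj a B = B ∨ cj a B ⊓ B = ⊥) (hle : Nat.card A ≤ Nat.card B) (hAB : A ⊓ B = ⊥)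
    (hN : B ≤ normalizer (A : Set G)) : ⁅A, B⁆ = ⊥ := by
  by_cases h : A ≤ normalizer (B : Set G)
  · exact eq_bot_iff.2 (hAB ▸ commutator_le_inf' h hN)
  have h1 : (A ⊓ normalizer (B : Set G)) ⊔ B ≤ normalizer (B : Set G) :=
    sup_le inf_le_right le_normalizer
  have h0 : A ⊓ normalizer (B : Set G) < A :=
    lt_of_le_of_ne inf_le_left fun e => h (e.ge.trans inf_le_right)
  obtain ⟨a, ha, h2, h3⟩ := exists_norm_of_lt hA hB hN h0
    (le_normalizer_inf hN (le_normalizer.trans le_normalizer)) (inf_le_inf_left _ h1)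
  have h4 := (hti a ha).resolve_left fun e => h2 ⟨ha, cj_eq_self_iff.1 e⟩
  have h5 : cj a B ≤ (A ⊓ normalizer (B : Set G)) ⊔ B := cj_le_of_mem_normalizer h3 le_sup_right
  have h6 := Core.card_sup_mul_card_inf (h5.trans h1)
  have h7 := Core.card_sup_mul_card_inf (inf_le_right : A ⊓ normalizer (B : Set G) ≤ _)
  have h8 := card_le_of_le (sup_le le_sup_left (h5.trans (sup_comm _ _).le))
  have h9 := Core.card_lt_of_lt h0
  rw [inf_comm, h4, card_bot, card_cj, mul_one] at h6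
  have h10 := Nat.card_pos (α := B)
  have h11 := Nat.le_mul_of_pos_right (Nat.card (B ⊔ A ⊓ normalizer (B : Set G) : Subgroup G))
    (Nat.card_pos (α := (B ⊓ (A ⊓ normalizer (B : Set G)) : Subgroup G)))
  rw [h7] at h11
  exact absurd (Nat.le_of_mul_le_mul_left (h6.ge.trans (h8.trans h11)) h10) (h9.trans_le hle).not_ge

theorem family_commute (n : ℕ) : ∀ (S : Subgroup G) (Δ : Set (Subgroup G)), Nat.card S = n →
    IsPGroup 2 S → (∀ R ∈ Δ, R ≤ S) → (∀ s ∈ S, ∀ R ∈ Δ, cj s R ∈ Δ) →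
    (∀ R ∈ Δ, ∃ r ∈ R, r * r ≠ 1) → (∀ R ∈ Δ, ∀ T ∈ Δ, Nat.card R = Nat.card T) →
    (∀ R ∈ Δ, ∀ T ∈ Δ, R = T ∨ R ⊓ T = ⊥) → ∀ R ∈ Δ, ∀ T ∈ Δ, R ≠ T → ⁅R, T⁆ = ⊥ := by
  haveI : Fact (Nat.Prime 2) := ⟨Nat.prime_two⟩
  induction n using Nat.strong_induction_on with
  | _ n ih =>
  intro S Δ hn hS hle hinv hsq hc hti
  have k1 : ∀ R ∈ Δ, ∀ T ∈ Δ, R ≠ T → T ≤ normalizer (R : Set G) → ⁅R, T⁆ = ⊥ :=
    fun R hR T hT hne h => ti_commute (hS.to_le (hle R hR)) (hS.to_le (hle T hT))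
      (fun a ha => hti _ (hinv a (hle R hR ha) T hT) T hT) (hc R hR T hT).le
      ((hti R hR T hT).resolve_left hne) h
  have k2 : ∀ R ∈ Δ, ∀ s ∈ S, s ∉ normalizer (R : Set G) →
      R ⊓ cj s R = ⊥ ∧ ∀ a ∈ R, ∀ b ∈ R, a * (s * b * s⁻¹) = s * b * s⁻¹ * a := fun R hR s hs h => by
    have hne : R ≠ cj s R := fun e => h (cj_eq_self_iff.1 e.symm)
    obtain ⟨M, m1, m2, m3, m4⟩ := PGrp.exists_relIndex_prime_ge hS
      (lt_of_le_of_ne (hle R hR) fun e => h (le_normalizer (e ▸ hs)))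
    have m5 : M < S := lt_of_le_of_ne m2 fun e => by rw [e, relIndex_self] at m3; omega
    have := ih _ (hn ▸ Core.card_lt_of_lt m5) M {X ∈ Δ | X ≤ M} rfl (hS.to_le m2) (fun _ h => h.2)
      (fun s hs X h => ⟨hinv s (m2 hs) X h.1, cj_le_of_mem hs h.2⟩) (fun X h => hsq X h.1)
      (fun X h Y h' => hc X h.1 Y h'.1) (fun X h Y h' => hti X h.1 Y h'.1) R ⟨hR, m1⟩ (cj s R)
      ⟨hinv s hs R hR, cj_le_of_mem_normalizer (m4 hs) m1⟩ hne
    exact ⟨(hti R hR _ (hinv s hs R hR)).resolve_left hne, fun a ha b hb =>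
      (commutator_eq_bot_iff_le_centralizer.1 this ha _ (conj_mem_cj hb)).symm⟩
  intro R hR T hT hne
  by_cases h1 : T ≤ normalizer (R : Set G)
  · exact k1 R hR T hT hne h1
  by_cases h2 : R ≤ normalizer (T : Set G)
  · rw [commutator_comm]; exact k1 T hT R hR hne.symm h2
  exfalso
  obtain ⟨t, ht, h3, h4⟩ : ∃ t ∈ T, t ∉ normalizer (R : Set G) ∧ t * t ∈ normalizer (R : Set G) := by
    obtain ⟨t, ht, h3⟩ := SetLike.not_le_iff_exists.1 h1
    obtain ⟨k, hk⟩ := isPGroup_iff_mem.1 hS t (hle T hT ht)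
    induction k generalizing t with
    | zero => rw [pow_zero, pow_one] at hk; exact absurd (hk ▸ one_mem _) h3
    | succ k ih =>
      by_cases h4 : t * t ∈ normalizer (R : Set G)
      · exact ⟨t, ht, h3, h4⟩
      · exact ih (t * t) (mul_mem ht ht) h4 (by rw [← pow_two, ← pow_mul, ← pow_succ', hk])
  obtain ⟨p1, p2⟩ := k2 R hR t (hle T hT ht) h3
  have k3 : ∀ r ∈ R, r ∉ normalizer (T : Set G) → r * r = 1 := fun r hr h5 => by
    obtain ⟨-, q2⟩ := k2 T hT r (hle R hR hr) h5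
    have e1 := q2 t ht t ht
    have e2 := p2 r⁻¹ (inv_mem hr) r hr
    have e3 : t * (r * r) * t⁻¹ = t * t * r * (t * t)⁻¹ * r := by
      have f1 : t * (r * t * r⁻¹ * t⁻¹) * t⁻¹ = r * t * r⁻¹ * t⁻¹ := by
        rw [← mul_assoc t, e1]; group
      symm
      calc t * t * r * (t * t)⁻¹ * r = (t * (r * t * r⁻¹ * t⁻¹) * t⁻¹)⁻¹ * (t * r * t⁻¹) * r := by
            simp only [mul_inv_rev, inv_inv, mul_assoc, inv_mul_cancel_left, mul_inv_cancel_left]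
        _ = t * r * t⁻¹ * (r⁻¹ * (t * r * t⁻¹)) * r := by rw [f1]; group
        _ = _ := by rw [e2]; group
    have : t * (r * r) * t⁻¹ ∈ R ⊓ cj t R := ⟨e3 ▸ mul_mem (conj_mem_of_mem_normalizer h4 hr) hr,
      conj_mem_cj (mul_mem hr hr)⟩
    rw [p1, mem_bot] at this
    simpa using this
  obtain ⟨r, hr, h5⟩ := SetLike.not_le_iff_exists.1 h2
  obtain ⟨s, hs, h6⟩ := hsq R hR
  have h7 : R ⊓ normalizer (T : Set G) ≠ ⊥ := fun e => h6 (by
    by_cases h : s ∈ normalizer (T : Set G)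
    · rw [mem_bot.1 (e.le (mem_inf.2 ⟨hs, h⟩)), mul_one]
    · exact k3 s hs h)
  obtain ⟨a, ⟨ha, haT⟩, ha2⟩ := exists_mem_orderOf_eq_of_ne_bot
    (hS.to_le (inf_le_left.trans (hle R hR))) h7
  have e1 : a * a = 1 := by rw [← pow_two, ← ha2, pow_orderOf_eq_one]
  have e2 := k3 r hr h5
  have e3 := k3 (r * a) (mul_mem hr ha) fun h => h5 (by simpa using mul_mem h (inv_mem haT))
  have e4 : r * a = a * r := by
    rw [← inv_eq_of_mul_eq_one_right e3, mul_inv_rev, inv_eq_of_mul_eq_one_right e1,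
      inv_eq_of_mul_eq_one_right e2]
  have hy : a⁻¹ * (t * a * t⁻¹) ∈ T := by
    rw [show a⁻¹ * (t * a * t⁻¹) = a⁻¹ * t * a * t⁻¹ by group]
    exact mul_mem (inv_conj_mem_of_mem_normalizer haT ht) (inv_mem ht)
  have e5 : r * (a⁻¹ * (t * a * t⁻¹)) * r⁻¹ = a⁻¹ * (t * a * t⁻¹) := by
    rw [← mul_assoc, (show Commute r a from e4).inv_right.eq, mul_assoc a⁻¹, p2 r hr a ha]; group
  have : a⁻¹ * (t * a * t⁻¹) ∈ T ⊓ cj r T := ⟨hy, e5 ▸ conj_mem_cj hy⟩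
  rw [(k2 T hT r (hle R hR hr) h5).1, mem_bot, inv_mul_eq_one] at this
  have : a ∈ R ⊓ cj t R := ⟨ha, this ▸ conj_mem_cj ha⟩
  rw [p1, mem_bot] at this
  exact ne_one_of_orderOf_eq ha2 this

end Cfsg.Agent.Inv
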